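import Cfsg.Agent.Lib.OO.BG3
import Cfsg.Agent.Lib.Mod.TwoPrimes
import Cfsg.Agent.Lib.Transfer.Kegel
import Cfsg.Agent.Lib.Char.Burnside
import Cfsg.Agent.Lib.Coprime.AxB

/-! # Groups with a noncyclic group of automorphisms of order `q²` with abelian fixed points, I -/

set_option autoImplicit false
set_option linter.unusedSectionVars false

namespace Cfsg.Agent.Mart

open Subgroup Cfsg.Agent.Coprime Cfsg.Agent.OO
open scoped Pointwise commutatorElement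

universe u

variable {X : Type u} [Group X] [Finite X]

/-- The standing hypothesis. -/
structure Hyp (q : ℕ) (A G : Subgroup X) : Prop where
  prime : q.Prime
  card : ♯A = q ^ 2
  nc : ¬ IsCyclic A
  norm : A ≤ 𝐍(G)
  cop : (♯G).Coprime ♯A
  ab : ∀ a ∈ A, a ≠ 1 → Ab (G ⊓ 𝐂[a])

variable {q p s : ℕ} {A G H K L P S U Y W : Subgroup X} {a b c : X} {π : Set ℕ}

theorem Hyp.abA (h : Hyp q A G) : Ab A := by
  have := Fact.mk h.prime
  exact IsPGroup.isMulCommutative_of_card_eq_prime_sq h.card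

theorem Hyp.solA (h : Hyp q A G) : Sol A := sol_of_ab h.abA

theorem Hyp.sub (h : Hyp q A G) (hH : H ≤ G) (hn : A ≤ 𝐍(H)) : Hyp q A H :=
  ⟨h.prime, h.card, h.nc, hn, coprime_card_mono h.cop hH le_rfl,
    fun a ha h1 => ab_of_le (h.ab a ha h1) (inf_le_inf_right _ hH)⟩

theorem Hyp.copH (h : Hyp q A G) (hH : H ≤ G) : (♯H).Coprime ♯A :=
  coprime_card_mono h.cop hH le_rfl

theorem Hyp.gen (h : Hyp q A G) (hH : H ≤ G) (hn : A ≤ 𝐍(H))
    (hK : ∀ a ∈ A, a ≠ 1 → H ⊓ 𝐂[a] ≤ K) : H ≤ K :=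
  coprime_abelian_gen_cent1 h.abA h.nc hn (h.copH hH) hK

theorem Hyp.zpowers_lt (h : Hyp q A G) (ha : a ∈ A) : zpowers a < A := by
  refine lt_of_le_of_ne (zpowers_le.2 ha) fun e => h.nc ?_
  rw [← e]; infer_instance

theorem Hyp.card_eq (h : Hyp q A G) (h1 : H < A) (h2 : H ≠ ⊥) : ♯H = q := by
  have h3 := card_dvd h1.le
  rw [h.card, Nat.dvd_prime_pow h.prime] at h3
  obtain ⟨k, hk, e⟩ := h3
  have h4 := card_lt h1
  have h5 := one_lt_card h2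
  rw [h.card, e] at h4
  rw [e] at h5
  have h6 : k < 2 := (Nat.pow_lt_pow_iff_right h.prime.one_lt).1 h4
  have h7 : k ≠ 0 := by rintro rfl; simp at h5
  obtain rfl : k = 1 := by omega
  rw [e, pow_one]

theorem Hyp.card_zpowers (h : Hyp q A G) (ha : a ∈ A) (h1 : a ≠ 1) : ♯(zpowers a) = q :=
  h.card_eq (h.zpowers_lt ha) (by simpa using h1)

theorem Hyp.zpowers_eq (h : Hyp q A G) (ha : a ∈ A) (hc : c ∈ zpowers a) (h1 : c ≠ 1) :
    zpowers c = zpowers a := by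
  have h2 : a ≠ 1 := by rintro rfl; simp at hc; exact h1 hc
  exact eq_zpowers_of_prime (by rw [h.card_zpowers ha h2]; exact h.prime) hc h1

theorem Hyp.cent1_eq (h : Hyp q A G) (ha : a ∈ A) (hc : c ∈ zpowers a) (h1 : c ≠ 1) :
    𝐂[c] = 𝐂[a] := by
  rw [← cent_zpowers, ← cent_zpowers, h.zpowers_eq ha hc h1]

theorem ne_one_of_not_mem (hb : b ∉ zpowers a) : b ≠ 1 := by
  rintro rfl; exact hb (one_mem _)

theorem Hyp.not_mem_symm (h : Hyp q A G) (hb : b ∈ A) (h1 : a ≠ 1) (hab : b ∉ zpowers a) :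
    a ∉ zpowers b := fun e => hab (by rw [h.zpowers_eq hb e h1]; exact mem_zpowers b)

theorem Hyp.sup_eq (h : Hyp q A G) (ha : a ∈ A) (hb : b ∈ A) (h1 : a ≠ 1) (hab : b ∉ zpowers a) :
    zpowers a ⊔ zpowers b = A := by
  by_contra hne
  have h2 : zpowers a ⊔ zpowers b < A :=
    lt_of_le_of_ne (sup_le (zpowers_le.2 ha) (zpowers_le.2 hb)) hne
  have h3 := h.card_eq h2 (fun e => h1 (by simpa using (le_sup_left.trans e.le) (mem_zpowers a)))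
  have h4 : zpowers a = zpowers a ⊔ zpowers b :=
    eq_of_le_of_card_le le_sup_left (by rw [h3, h.card_zpowers ha h1])
  exact hab (h4 ▸ (le_sup_right : zpowers b ≤ zpowers a ⊔ zpowers b) (mem_zpowers b))

theorem Hyp.cent_inf (h : Hyp q A G) (ha : a ∈ A) (hb : b ∈ A) (h1 : a ≠ 1)
    (hab : b ∉ zpowers a) : 𝐂[a] ⊓ 𝐂[b] = 𝐂(A) := by
  rw [← h.sup_eq ha hb h1 hab, cent_sup, cent_zpowers, cent_zpowers]

theorem Hyp.exists_not_mem (h : Hyp q A G) (ha : a ∈ A) : ∃ b ∈ A, b ∉ zpowers a :=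
  SetLike.not_le_iff_exists.1 (h.zpowers_lt ha).not_ge

theorem Hyp.exists_not_mem₂ (h : Hyp q A G) (ha : a ∈ A) (hc : c ∈ A) :
    ∃ b ∈ A, b ∉ zpowers a ∧ b ∉ zpowers c := by
  obtain ⟨x, hx, h1⟩ := h.exists_not_mem ha
  obtain ⟨y, hy, h2⟩ := h.exists_not_mem hc
  by_cases h3 : x ∈ zpowers c
  · by_cases h4 : y ∈ zpowers a
    · exact ⟨x * y, mul_mem hx hy, fun e => h1 ((mul_mem_cancel_right h4).1 e),
        fun e => h2 ((mul_mem_cancel_left h3).1 e)⟩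
    · exact ⟨y, hy, h4, h2⟩
  · exact ⟨x, hx, h1, h3⟩

theorem Hyp.norm_zpowers (h : Hyp q A G) (ha : a ∈ A) : A ≤ 𝐍(zpowers a) :=
  le_norm_of_ab h.abA (zpowers_le.2 ha)

theorem Hyp.norm_cent1 (h : Hyp q A G) (ha : a ∈ A) : A ≤ 𝐍(𝐂[a]) := by
  rw [← cent_zpowers]; exact le_norm_cent (h.norm_zpowers ha)

theorem Hyp.norm_fix (h : Hyp q A G) (ha : a ∈ A) (hn : A ≤ 𝐍(H)) : A ≤ 𝐍(H ⊓ 𝐂[a]) :=
  le_norm_inf hn (h.norm_cent1 ha)

theorem Hyp.fix_le_cent (h : Hyp q A G) (ha : a ∈ A) (h1 : a ≠ 1) (hH : H ≤ G ⊓ 𝐂[a])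
    (hK : K ≤ G ⊓ 𝐂[a]) : H ≤ 𝐂(K) :=
  le_cent_mono (Ab.le_cent (h.ab a ha h1)) hH hK

theorem Hyp.quo (h : Hyp q A G) {N : Subgroup X} (hN : N ⊴ G) (hn : A ≤ 𝐍(N)) :
    Hyp q (A ⁒ N) (G ⁒ N) := by
  have hc : (♯N).Coprime ♯A := h.copH hN.le
  refine ⟨h.prime, by rw [card_quo_of_coprime hn hc, h.card], fun e => h.nc ?_,
    quo_le_norm N h.norm, coprime_quo h.cop N N, fun z hz h1 => ?_⟩
  · exact (quoEquivOfInf hn (inf_eq_bot_of_coprime_card hc)).isCyclic.2 e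
  · obtain ⟨a, ha, rfl⟩ := (mem_quo_of_le hn).1 hz
    have h2 : a ≠ 1 := by rintro rfl; exact h1 (coset_eq_one (one_mem _))
    rw [← quo_inf_cent1 hN.le (hn ha) (hc.coprime_dvd_right (orderOf_dvd_card ha))]
    exact ab_quo (h.ab a ha h2) N

/-- The fixed-point-free case. -/
structure Fp (q : ℕ) (A G : Subgroup X) : Prop extends Hyp q A G where
  fpf : G ⊓ 𝐂(A) = ⊥

theorem Fp.sub' (h : Fp q A G) (hH : H ≤ G) (hn : A ≤ 𝐍(H)) : Fp q A H :=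
  ⟨h.sub hH hn, le_bot_iff.1 (h.fpf ▸ inf_le_inf_right _ hH)⟩

theorem Fp.inf_eq_bot (h : Fp q A G) (ha : a ∈ A) (hb : b ∈ A) (h1 : a ≠ 1)
    (hab : b ∉ zpowers a) (hY : Y ≤ G ⊓ 𝐂[a]) : Y ⊓ 𝐂[b] = ⊥ := by
  rw [← le_bot_iff, ← h.fpf, ← h.cent_inf ha hb h1 hab, ← inf_assoc]
  exact inf_le_inf_right _ hY

/-- The consequence of Wielandt's fixed point formula. -/
theorem Fp.tl (h : Fp q A G) (hU : U ≤ G) (hUs : Sol U) (hAU : A ≤ 𝐍(U)) (ha : a ∈ A)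
    (h1 : a ≠ 1) (hY : Y ≤ G ⊓ 𝐂[a]) (hAY : A ≤ 𝐍(Y)) (hYU : Y ≤ 𝐍(U))
    (hc : (♯U).Coprime ♯Y) (hb : b ∈ A) (hab : b ∉ zpowers a) (hC : U ⊓ 𝐂[b] ≤ 𝐂(Y)) :
    Y ≤ 𝐂(U) := by
  by_cases hY0 : Y = ⊥
  · rw [hY0]; exact bot_le
  have hb1 := ne_one_of_not_mem hab
  have hR : zpowers b ≤ A := zpowers_le.2 hb
  have hreg : Semiregular Y (zpowers b) := fun x hx hx1 => by
    rw [h.cent1_eq hb hx hx1]; exact h.inf_eq_bot ha hb h1 hab hY
  have hF := hreg.isFrob (hR.trans hAY) hY0 (by simpa using hb1)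
  have hcop : (♯U).Coprime ♯(Y ⊔ zpowers b) :=
    (Nat.Coprime.mul_right hc (coprime_card_mono h.cop hU hR)).coprime_dvd_right
      (card_sup_dvd (Or.inr (hR.trans hAY)))
  have h2 := (Frobenius_Wielandt_fixpoint hF (sup_le hYU (hR.trans hAU)) hcop hUs).1
  have h3 : U ⊓ 𝐂(Y ⊔ zpowers b) = U ⊓ 𝐂(zpowers b) := by
    rw [cent_sup, cent_zpowers]
    exact le_antisymm (inf_le_inf_left _ inf_le_right)
      (le_inf inf_le_left (le_inf hC inf_le_right))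
  rw [h3] at h2
  have h4 := Nat.eq_of_mul_eq_mul_left (pow_pos (card_pos' _) _) h2
  have h5 : U ⊓ 𝐂(Y) = U := eq_of_le_of_card_le inf_le_left h4.le
  exact le_cent_symm (h5 ▸ inf_le_right)

theorem Fp.piSup (h : Fp q A G) (hH : H ≤ G) (hs : Sol H) (hn : A ≤ 𝐍(H)) (hK : K ≤ H)
    (hL : L ≤ H) (hK1 : PiGrp π K) (hL1 : PiGrp π L) (hK2 : A ≤ 𝐍(K)) (hL2 : A ≤ 𝐍(L)) :
    PiGrp π (K ⊔ L) := by
  obtain ⟨K', h1, h2, h3⟩ := coprime_Hall_subset hn (h.copH hH) hs hK hK1 hK2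
  obtain ⟨L', h4, h5, h6⟩ := coprime_Hall_subset hn (h.copH hH) hs hL hL1 hL2
  obtain ⟨x, hx, e⟩ := coprime_Hall_trans hn (h.copH hH) hs h1 h2 h4 h5
  rw [(h.sub' hH hn).fpf, mem_bot] at hx
  rw [hx, map_one, one_smul] at e
  exact h1.piGrp.of_le (sup_le h3 (e ▸ h6))

theorem Fp.le_syl [Fact p.Prime] (h : Fp q A G) (hP : Syl p P G) (hn : A ≤ 𝐍(P)) (hU : U ≤ G)
    (hp : IsPGroup p U) (hAU : A ≤ 𝐍(U)) : U ≤ P := by
  obtain ⟨x, hx, e⟩ := exists_le_invariant_sylow_conj h.norm h.cop.symm (Or.inl h.solA) hP hn hU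
    hp hAU
  rw [h.fpf, mem_bot] at hx
  rw [hx, ← conj_eq_map, map_one, one_smul] at e
  exact e

theorem Hyp.exists_syl (h : Hyp q A G) (p : ℕ) [Fact p.Prime] : ∃ P, Syl p P G ∧ A ≤ 𝐍(P) := by
  obtain ⟨P, h1, h2, -⟩ := exists_invariant_sylow_ge (p := p) h.norm h.cop.symm (Or.inl h.solA)
    (bot_le : ⊥ ≤ G) (IsPGroup.of_bot) (by rw [norm_bot]; exact le_top)
  exact ⟨P, h1, h2⟩

theorem Fp.syl_inf [Fact p.Prime] (h : Fp q A G) (hP : Syl p P G) (hn : A ≤ 𝐍(P)) (hH : H ≤ G)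
    (hAH : A ≤ 𝐍(H)) : Syl p (P ⊓ H) H := by
  obtain ⟨Q, h1, h2⟩ := (h.sub hH hAH).exists_syl p
  have h3 : Q ≤ P ⊓ H := le_inf (h.le_syl hP hn (h1.le.trans hH) h1.isPGroup h2) h1.le
  rw [h1.eq_of_le h3 inf_le_right (hP.isPGroup.to_inf_left)]
  exact h1

/-- Fitting height at most two. -/
theorem Fp.nil_quo (h : Fp q A G) (hs : Sol G) : Nil (G ⁒ Fit G) := by
  have hG : G ≤ G ⊔ A := le_sup_left
  have hA : A ≤ G ⊔ A := le_sup_right
  have hF : Mod.Fpf (G.subgroupOf (G ⊔ A)) (A.subgroupOf (G ⊔ A)) := by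
    refine ⟨(normalIn_sup_left h.norm).subgroupOf, ?_, ?_, ?_, ?_⟩
    · rw [← subgroupOf_sup hG hA, subgroupOf_self]
    · exact (Core.isSolvable_congr (subgroupOfEquivOfLe hG)).2 hs
    · rw [Nat.card_congr (subgroupOfEquivOfLe hG).toEquiv,
        Nat.card_congr (subgroupOfEquivOfLe hA).toEquiv]
      exact h.cop.symm
    · rw [eq_bot_iff]
      intro x hx
      have : (x : X) ∈ G ⊓ 𝐂(A) := by
        refine ⟨hx.1, mem_cent_iff.2 fun y hy => ?_⟩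
        exact congrArg Subtype.val (hx.2 ⟨y, hA hy⟩ hy)
      rw [h.fpf, mem_bot] at this
      exact mem_bot.2 (Subtype.ext this)
  have h2 := hF.lns_two_eq_bot ⟨q, q, h.prime, h.prime, by
    rw [Nat.card_congr (subgroupOfEquivOfLe hA).toEquiv, h.card, sq]⟩
  rw [← Mod.lns_map_eq_bot_iff_of_injective (G ⊔ A).subtype_injective,
    map_subgroupOf_eq_of_le hG, Mod.lns_succ_eq_bot_iff] at h2
  have h3 : Mod.lns G 1 = Mod.nres G := rfl
  rw [h3] at h2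
  have h4 : (Mod.nres (⊤ : Subgroup G)).map G.subtype = Mod.nres G := by
    rw [Mod.map_nres, map_subtype_top]
  have h5 : Mod.nres G ≤ Fit G := by
    refine le_Fit ?_ h2
    rw [← h4]
    have : (Mod.nres (⊤ : Subgroup G)).Normal := Mod.lns_normal ⊤ 1
    exact normalIn_map_subtype _
  have h6 : G ≤ 𝐍(Fit G) := (Fit_normal G).norm
  have h7 : Mod.nres (⊤ : Subgroup G) ≤ (quoHom h6).ker := by
    rw [ker_quoHom]
    intro x hx
    exact h5 (h4 ▸ mem_map_of_mem G.subtype hx)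
  rw [Mod.nres_le_ker_iff, ← MonoidHom.range_eq_map, range_quoHom] at h7
  exact h7

theorem Fp.norm_fit_sup [Fact p.Prime] (h : Fp q A G) (hs : Sol G) (hP : Syl p P G) :
    G ≤ 𝐍(P ⊔ Fit G) :=
  le_norm_sup_of_quo (Fit_normal G).norm (hP.le.trans (Fit_normal G).norm)
    ((hP.quo (Fit_normal G).norm).norm_of_nil (h.nil_quo hs))

end Cfsg.Agent.Mart
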