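import Cfsg.Agent.Lib.Core.MartA

/-! # Groups with a noncyclic group of automorphisms of order `q²` with abelian fixed points, II:
maximal invariant `{p, s}`-subgroups of a minimal counterexample -/

set_option autoImplicit false
set_option linter.unusedSectionVars false

namespace Cfsg.Agent.Mart

open Subgroup Cfsg.Agent.Coprime Cfsg.Agent.OO
open scoped Pointwise commutatorElement

universe u

variable {X : Type u} [Group X] [Finite X]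

variable {q p s : ℕ} {A G H K L P S U Y W : Subgroup X} {a b c l : X} {π : Set ℕ}

/-- A minimal counterexample. -/
structure Min (q : ℕ) (A G : Subgroup X) : Prop extends Fp q A G where
  nsol : ¬ Sol G
  proper : ∀ H, H < G → A ≤ 𝐍(H) → Sol H
  simple : ∀ N, N ⊴ G → A ≤ 𝐍(N) → N = ⊥ ∨ N = G

theorem Min.normSol (h : Min q A G) (hU : U ≤ G) (h0 : U ≠ ⊥) (hs : Sol U) (hn : A ≤ 𝐍(U)) :
    Sol (G ⊓ 𝐍(U)) := by
  refine h.proper _ (lt_of_le_of_ne inf_le_left fun e => ?_) (le_norm_inf h.norm (le_norm_norm hn))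
  rcases h.simple U ⟨hU, e ▸ inf_le_right⟩ hn with h1 | h1
  · exact h0 h1
  · exact h.nsol (h1 ▸ hs)

theorem Min.piSupN (h : Min q A G) (hU : U ≤ G) (h0 : U ≠ ⊥) (hs : Sol U) (hn : A ≤ 𝐍(U))
    (hK : K ≤ G) (hL : L ≤ G) (hKU : K ≤ 𝐍(U)) (hLU : L ≤ 𝐍(U))
    (hK1 : PiGrp π K) (hL1 : PiGrp π L) (hK2 : A ≤ 𝐍(K)) (hL2 : A ≤ 𝐍(L)) :
    PiGrp π (K ⊔ L) :=
  h.piSup inf_le_left (h.normSol hU h0 hs hn) (le_norm_inf h.norm (le_norm_norm hn))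
    (le_inf hK hKU) (le_inf hL hLU) hK1 hL1 hK2 hL2

/-- maximal invariant `π`-subgroup -/
structure MaxPi (π : Set ℕ) (A G K : Subgroup X) : Prop where
  le : K ≤ G
  norm : A ≤ 𝐍(K)
  pi : PiGrp π K
  max : ∀ L, K ≤ L → L ≤ G → A ≤ 𝐍(L) → PiGrp π L → L ≤ K

theorem exists_maxPi (hL : L ≤ G) (hn : A ≤ 𝐍(L)) (hπ : PiGrp π L) :
    ∃ K, MaxPi π A G K ∧ L ≤ K := by
  obtain ⟨K, h1, h2⟩ := Finite.exists_le_maximal
    (p := fun K : Subgroup X => K ≤ G ∧ A ≤ 𝐍(K) ∧ PiGrp π K) ⟨hL, hn, hπ⟩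
  exact ⟨K, ⟨h2.1.1, h2.1.2.1, h2.1.2.2, fun M h3 h4 h5 h6 => h2.2 ⟨h4, h5, h6⟩ h3⟩, h1⟩

theorem Min.maxN (h : Min q A G) (hK : MaxPi π A G K) (hU : U ≤ G) (h0 : U ≠ ⊥) (hs : Sol U)
    (hn : A ≤ 𝐍(U)) (hKU : K ≤ 𝐍(U)) (hL : L ≤ G) (hLU : L ≤ 𝐍(U)) (hL1 : PiGrp π L)
    (hL2 : A ≤ 𝐍(L)) : L ≤ K :=
  le_sup_right.trans (hK.max (K ⊔ L) le_sup_left (sup_le hK.le hL) (le_norm_sup hK.norm hL2)
    (h.piSupN hU h0 hs hn hK.le hL hKU hLU hK.pi hL1 hK.norm hL2))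

theorem MaxPi.symm (hK : MaxPi {p, s} A G K) : MaxPi {s, p} A G K := by
  rwa [Set.pair_comm]

section Two

variable [hp : Fact p.Prime] [hs : Fact s.Prime]

theorem sol_of_pi (h : PiGrp {p, s} K) : Sol K :=
  Char.solvable_of_two_primes hp.out hs.out fun r hr hd => by simpa using h r hr hd

theorem Op'_le_Op (h : PiGrp {p, s} K) : Op' p K ≤ Op s K := by
  refine le_Op (Opi_normal _ K) (PiGrp.isPGroup fun r hr hd => ?_)
  have h1 := Op'_piGrp p K r hr hd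
  have h2 := h r hr (hd.trans (card_dvd (Opi_le _ K)))
  simp only [Set.mem_compl_iff, Set.mem_singleton_iff, Set.mem_insert_iff] at h1 h2 ⊢
  exact h2.resolve_left h1

theorem pi_left (h : IsPGroup p U) : PiGrp {p, s} U := piGrp_of_isPGroup h (by simp)

theorem pi_right (h : IsPGroup s U) : PiGrp {p, s} U := piGrp_of_isPGroup h (by simp)

theorem Zc_Op_ne_bot (h : Op p K ≠ ⊥) : Zc (Op p K) ≠ ⊥ :=
  Zc_ne_bot (nil_of_isPGroup (Op_isPGroup p K)) h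

theorem Min.le_of_cent_Zc (h : Min q A G) (hK : MaxPi π A G K) (h0 : Op p K ≠ ⊥) (hL : L ≤ G)
    (hc : L ≤ 𝐂(Zc (Op p K))) (hL1 : PiGrp π L) (hL2 : A ≤ 𝐍(L)) : L ≤ K :=
  h.maxN hK ((Zc_le _).trans ((Op_le p K).trans hK.le)) (Zc_Op_ne_bot h0) (sol_of_ab (Zc_ab _))
    (le_norm_Zc (le_norm_Op p hK.norm)) (Op_normal p K).Zc.norm hL (le_norm_of_le_cent hc) hL1 hL2

theorem Min.bender1 (h : Min q A G) (hne : p ≠ s) (hK : MaxPi {p, s} A G K)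
    (hL : MaxPi {p, s} A G L) (h2 : Op s K ≠ ⊥) (h3 : Zc (Op p K) ≤ L) (h4 : Zc (Op s K) ≤ L) :
    Zc (Op p K) ≤ 𝐂(Op s L) := by
  have hpK : IsPGroup p (Zc (Op p K)) := (Op_isPGroup p K).to_le (Zc_le _)
  refine thompson_AxB (p := s) ((Op_isPGroup s K).to_le (Zc_le (Op s K))) ?_ ?_ (Op_isPGroup s L)
    (h4.trans (Op_normal s L).norm) (h3.trans (Op_normal s L).norm) ?_
  · obtain ⟨n, hn⟩ := IsPGroup.iff_card.1 hpK
    rw [hn]
    exact ((Nat.coprime_primes hp.out hs.out).2 hne).pow_left n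
  · exact le_cent_mono (Op_le_cent_Op hne.symm K) (Zc_le _) (Zc_le _)
  · have h5 : Op s L ⊓ 𝐂(Zc (Op s K)) ≤ K :=
      h.le_of_cent_Zc hK h2 (inf_le_left.trans ((Op_le s L).trans hL.le)) inf_le_right
        (pi_right (Op_isPGroup s L).to_inf_left)
        (le_norm_inf (le_norm_Op s hL.norm) (le_norm_cent (le_norm_Zc (le_norm_Op s hK.norm))))
    rw [← OO.commutator_eq_bot_iff, ← le_bot_iff,
      ← inf_eq_bot_of_coprime_card (coprime_of_isPGroup_ne (Op_isPGroup s L) hpK hne.symm)]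
    refine le_inf ((commutator_mono inf_le_left le_rfl).trans
      (commutator_le_left' (h3.trans (Op_normal s L).norm))) ?_
    exact commutator_le_right' (h5.trans (Op_normal p K).Zc.norm)

theorem Min.bender2 (h : Min q A G) (hne : p ≠ s) (hK : MaxPi {p, s} A G K)
    (hL : MaxPi {p, s} A G L) (h1 : Op p K ≠ ⊥) (h2 : Op s K ≠ ⊥) (h3 : Zc (Op p K) ≤ L)
    (h4 : Zc (Op s K) ≤ L) : Op s L ≤ K ∧ Op p L ≠ ⊥ := by
  have h5 := h.bender1 hne hK hL h2 h3 h4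
  refine ⟨h.le_of_cent_Zc hK h1 ((Op_le s L).trans hL.le) (le_cent_symm h5)
    (pi_right (Op_isPGroup s L)) (le_norm_Op s hL.norm), fun e => Zc_Op_ne_bot h1 ?_⟩
  have h6 : Op' s L = ⊥ := le_bot_iff.1 (e ▸ Op'_le_Op hL.symm.pi)
  have h7 := (le_inf h3 h5).trans (cent_Op_le_of_Op'_eq_bot (sol_of_pi hL.pi) h6)
  rw [← le_bot_iff, ← inf_eq_bot_of_coprime_card
    (coprime_of_isPGroup_ne (Op_isPGroup p K) (Op_isPGroup s L) hne)]
  exact le_inf (Zc_le _) h7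

theorem Min.bender3 (h : Min q A G) (hne : p ≠ s) (hK : MaxPi {p, s} A G K)
    (hL : MaxPi {p, s} A G L) (h1 : Op p K ≠ ⊥) (h3 : Op p K ≤ L) (h4 : Op s K ≤ L) :
    Op s K ≤ Op s L := by
  refine le_trans ?_ ((p'core_cent_pgroup h3 (Op_isPGroup p K) (sol_of_pi hL.pi)).trans
    (Op'_le_Op hL.pi))
  refine le_Opi ⟨le_inf h4 (Op_le_cent_Op hne.symm K), le_trans ?_ (Op_normal s K).norm⟩
    (piGrp_compl_of_isPGroup (Op_isPGroup s K) hne.symm)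
  exact h.le_of_cent_Zc hK h1 (inf_le_left.trans hL.le) (inf_le_right.trans (cent_anti (Zc_le _)))
    (hL.pi.inf_left _) (le_norm_inf hL.norm (le_norm_cent (le_norm_Op p hK.norm)))

/-- Bender's maximal subgroup argument. -/
theorem Min.bender (h : Min q A G) (hne : p ≠ s) (hK : MaxPi {p, s} A G K)
    (hL : MaxPi {p, s} A G L) (h1 : Op p K ≠ ⊥) (h2 : Op s K ≠ ⊥) (h3 : Zc (Op p K) ≤ L)
    (h4 : Zc (Op s K) ≤ L) : L ≤ K := by
  obtain ⟨h5, h6⟩ := h.bender2 hne hK hL h1 h2 h3 h4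
  obtain ⟨h7, h8⟩ := h.bender2 hne.symm hK.symm hL.symm h2 h1 h4 h3
  obtain ⟨h9, -⟩ := h.bender2 hne hL hK h6 h8 ((Zc_le _).trans h7) ((Zc_le _).trans h5)
  obtain ⟨h10, -⟩ := h.bender2 hne.symm hL.symm hK.symm h8 h6 ((Zc_le _).trans h5)
    ((Zc_le _).trans h7)
  have e : Op s K = Op s L :=
    le_antisymm (h.bender3 hne hK hL h1 h10 h9) (h.bender3 hne hL hK h6 h7 h5)
  exact h.maxN hK ((Op_le s K).trans hK.le) h2 (sol_of_isPGroup (Op_isPGroup s K))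
    (le_norm_Op s hK.norm) (Op_normal s K).norm hL.le (e ▸ (Op_normal s L).norm) hL.pi hL.norm

theorem Min.uniq (h : Min q A G) (hne : p ≠ s) (hK : MaxPi {p, s} A G K)
    (h1 : Op p K ≠ ⊥) (h2 : Op s K ≠ ⊥) (hW : W ≤ G) (h0 : W ≠ ⊥) (hsW : Sol W) (hn : A ≤ 𝐍(W))
    (h3 : Zc (Op p K) ≤ 𝐍(W)) (h4 : Zc (Op s K) ≤ 𝐍(W)) (hY : Y ≤ G) (hYW : Y ≤ 𝐍(W))
    (hY1 : PiGrp {p, s} Y) (hY2 : A ≤ 𝐍(Y)) : Y ≤ K := by
  have h5 : Zc (Op p K) ⊔ Zc (Op s K) ≤ K :=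
    sup_le ((Zc_le _).trans (Op_le p K)) ((Zc_le _).trans (Op_le s K))
  have h6 : A ≤ 𝐍(Zc (Op p K) ⊔ Zc (Op s K)) :=
    le_norm_sup (le_norm_Zc (le_norm_Op p hK.norm)) (le_norm_Zc (le_norm_Op s hK.norm))
  obtain ⟨L, hL, h7⟩ := exists_maxPi (sup_le (h5.trans hK.le) hY) (le_norm_sup h6 hY2)
    (h.piSupN hW h0 hsW hn (h5.trans hK.le) hY (sup_le h3 h4) hYW (hK.pi.of_le h5) hY1 h6 hY2)
  exact (le_sup_right.trans h7).trans (h.bender hne hK hL h1 h2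
    ((le_sup_left.trans le_sup_left).trans h7) ((le_sup_right.trans le_sup_left).trans h7))

theorem Min.uniq_fix (h : Min q A G) (hne : p ≠ s) (hK : MaxPi {p, s} A G K)
    (h1 : Op p K ≠ ⊥) (h2 : Op s K ≠ ⊥) (hb : b ∈ A) (hb1 : b ≠ 1) (h0 : Op p K ⊓ 𝐂[b] ≠ ⊥)
    (hY : Y ≤ G ⊓ 𝐂[b]) (hY1 : PiGrp {p, s} Y) (hY2 : A ≤ 𝐍(Y)) : Y ≤ K := by
  have h3 : Op p K ≤ G := (Op_le p K).trans hK.le
  exact h.uniq hne hK h1 h2 (inf_le_left.trans h3) h0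
    (sol_of_isPGroup (Op_isPGroup p K).to_inf_left) (h.norm_fix hb (le_norm_Op p hK.norm))
    (le_norm_of_le_cent ((Zc_le_cent _).trans (cent_anti inf_le_left)))
    (le_norm_of_le_cent (le_cent_mono (Op_le_cent_Op hne.symm K) (Zc_le _) inf_le_left))
    (hY.trans inf_le_left)
    (le_norm_of_le_cent (h.fix_le_cent hb hb1 hY (inf_le_inf_right _ h3))) hY1 hY2

theorem Min.stepA (h : Min q A G) (hne : p ≠ s) (hK : MaxPi {p, s} A G K)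
    (h1 : Op p K ≠ ⊥) (h2 : Op s K ≠ ⊥) (hP : Syl p P G) (hAP : A ≤ 𝐍(P)) : P ≤ K := by
  set T := P ⊓ K with hT
  have hAT : A ≤ 𝐍(T) := le_norm_inf hAP hK.norm
  have hTG : T ≤ G := inf_le_right.trans hK.le
  have hTp : IsPGroup p T := hP.isPGroup.to_inf_left
  have hAY : A ≤ 𝐍(P ⊓ 𝐍(T)) := le_norm_inf hAP (le_norm_norm hAT)
  have hOT : Op p K ≤ T := le_inf (h.le_syl hP hAP ((Op_le p K).trans hK.le) (Op_isPGroup p K)
    (le_norm_Op p hK.norm)) (Op_le p K)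
  suffices hh : P ⊓ 𝐍(T) ≤ K by
    rw [← eq_of_nil_of_inf_norm_le hP.nil (inf_le_left : T ≤ P) (le_inf inf_le_left hh)]
    exact inf_le_right
  refine h.gen (inf_le_left.trans hP.le) hAY fun b hb hb1 => ?_
  have hY : P ⊓ 𝐍(T) ⊓ 𝐂[b] ≤ G ⊓ 𝐂[b] := inf_le_inf_right _ (inf_le_left.trans hP.le)
  have hY1 : PiGrp {p, s} (P ⊓ 𝐍(T) ⊓ 𝐂[b]) := pi_left hP.isPGroup.to_inf_left.to_inf_left
  have hY2 := h.norm_fix hb hAY
  by_cases h3 : Op p K ⊓ 𝐂[b] = ⊥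
  swap
  · exact h.uniq_fix hne hK h1 h2 hb hb1 h3 hY hY1 hY2
  by_cases h4 : Op s K ⊓ 𝐂[b] = ⊥
  swap
  · exact h.uniq_fix hne.symm hK.symm h2 h1 hb hb1 h4 hY (by rwa [Set.pair_comm]) hY2
  have hR : zpowers b ≤ A := zpowers_le.2 hb
  have hWT : ⁅T, zpowers b⁆ ≤ T := commutator_le_left' (hR.trans hAT)
  have hAs := le_norm_Op s hK.norm
  have hTs : T ≤ 𝐍(Op s K) := inf_le_right.trans (Op_normal s K).norm
  have h5 : T ≤ (T ⊓ 𝐂(Op s K)) ⊔ (T ⊓ 𝐂[b]) := by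
    refine h.gen hTG hAT fun c hc hc1 => ?_
    by_cases h6 : c ∈ zpowers b
    · rw [h.cent1_eq hb h6 hc1]; exact le_sup_right
    · refine le_trans (le_inf inf_le_left ?_) le_sup_left
      exact h.tl ((Op_le s K).trans hK.le) (sol_of_isPGroup (Op_isPGroup s K)) hAs hc hc1
        (inf_le_inf_right _ hTG) (h.norm_fix hc hAT) (inf_le_left.trans hTs)
        (coprime_of_isPGroup_ne (Op_isPGroup s K) hTp.to_inf_left hne.symm) hb
        (h.not_mem_symm hc hb1 h6) (by rw [h4]; exact bot_le)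
  have h6 : ⁅T, zpowers b⁆ ≤ T ⊓ 𝐂(Op s K) := by
    refine (commutator_mono h5 le_rfl).trans (commutator_sup_le ?_ ?_ ?_)
    · exact (sup_le inf_le_left inf_le_left).trans (normalIn_inf_cent hTs).norm
    · exact commutator_le_left' (hR.trans (le_norm_inf hAT (le_norm_cent hAs)))
    · rw [OO.commutator_eq_bot_iff.2 (by rw [cent_zpowers]; exact inf_le_right)]; exact bot_le
  refine h.uniq hne hK h1 h2 (hWT.trans hTG) (fun e => h1 ?_) (sol_of_isPGroup (hTp.to_le hWT))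
    (le_norm_commutator hAT (h.norm_zpowers hb))
    (((Zc_le _).trans hOT).trans (le_norm_commutator_left _ _))
    (le_norm_of_le_cent ((Zc_le _).trans (le_cent_symm (h6.trans inf_le_right))))
    (hY.trans inf_le_left) (le_norm_commutator (inf_le_left.trans inf_le_right)
      (le_norm_of_le_cent (by rw [cent_zpowers]; exact inf_le_right))) hY1 hY2
  rw [OO.commutator_eq_bot_iff, cent_zpowers] at e
  rw [← h3, left_eq_inf]
  exact hOT.trans e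

theorem Min.stepB (h : Min q A G) (hK : MaxPi {p, s} A G K) (h2 : Op s K = ⊥)
    (hP : Syl p P G) (hAP : A ≤ 𝐍(P)) (h0 : P ≠ ⊥) : P ≤ K ∧ K ≤ 𝐍(P) := by
  have hsK := sol_of_pi hK.pi
  have h3 : Fit K = Op p K := Fit_eq_Op (le_bot_iff.1 (h2 ▸ Op'_le_Op hK.pi))
  have hT := h.syl_inf hP hAP hK.le hK.norm
  have h4 : Op p K ≤ P ⊓ K := hT.le_of_normal (Op_normal p K) (Op_isPGroup p K)
  have h5 := (h.sub' hK.le hK.norm).norm_fit_sup hsK hT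
  rw [h3, sup_eq_left.2 h4] at h5
  have hAT : A ≤ 𝐍(P ⊓ K) := le_norm_inf hAP hK.norm
  have h6 : P ⊓ K ≠ ⊥ := by
    intro e
    have h7 : K = ⊥ := by
      by_contra h7
      exact Fit_ne_bot hsK h7 (by rw [h3, ← le_bot_iff, ← e]; exact h4)
    exact h0 (le_bot_iff.1 (h7 ▸ hK.max P (h7 ▸ bot_le) hP.le hAP (pi_left hP.isPGroup)))
  have h7 : P ⊓ 𝐍(P ⊓ K) ≤ K :=
    h.maxN hK (inf_le_right.trans hK.le) h6 hT.sol hAT h5 (inf_le_left.trans hP.le) inf_le_right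
      (pi_left hP.isPGroup.to_inf_left) (le_norm_inf hAP (le_norm_norm hAT))
  have h8 := eq_of_nil_of_inf_norm_le hP.nil (inf_le_left : P ⊓ K ≤ P) (le_inf inf_le_left h7)
  rw [h8] at h5
  exact ⟨h8 ▸ inf_le_right, h5⟩

end Two

/-- Two invariant Sylow subgroups that do not generate a `{p, s}`-group. -/
structure Pair (q : ℕ) (A G : Subgroup X) (p s : ℕ) (P S : Subgroup X) : Prop where
  min : Min q A G
  ne : p ≠ s
  sylP : Syl p P G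
  sylS : Syl s S G
  nP : A ≤ 𝐍(P)
  nS : A ≤ 𝐍(S)
  P0 : P ≠ ⊥
  S0 : S ≠ ⊥
  npi : ¬ PiGrp {p, s} (P ⊔ S)

theorem Pair.symm (h : Pair q A G p s P S) : Pair q A G s p S P :=
  ⟨h.min, h.ne.symm, h.sylS, h.sylP, h.nS, h.nP, h.S0, h.P0, by
    rw [Set.pair_comm, sup_comm]; exact h.npi⟩

section Two

variable [hp : Fact p.Prime] [hs : Fact s.Prime]

theorem Pair.dich (h : Pair q A G p s P S) (hK : MaxPi {p, s} A G K) :
    (Op s K = ⊥ ∧ P ≤ K ∧ K ≤ 𝐍(P)) ∨ (Op p K = ⊥ ∧ S ≤ K ∧ K ≤ 𝐍(S)) := by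
  by_cases h1 : Op s K = ⊥
  · exact Or.inl ⟨h1, h.min.stepB hK h1 h.sylP h.nP h.P0⟩
  by_cases h2 : Op p K = ⊥
  · exact Or.inr ⟨h2, h.min.stepB hK.symm h2 h.sylS h.nS h.S0⟩
  exact absurd (hK.pi.of_le (sup_le (h.min.stepA h.ne hK h2 h1 h.sylP h.nP)
    (h.min.stepA h.ne.symm hK.symm h1 h2 h.sylS h.nS))) h.npi

theorem Pair.le_norm_or (h : Pair q A G p s P S) (hL : L ≤ G) (hn : A ≤ 𝐍(L))
    (hπ : PiGrp {p, s} L) : L ≤ 𝐍(P) ∨ L ≤ 𝐍(S) := by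
  obtain ⟨K, hK, h1⟩ := exists_maxPi hL hn hπ
  exact (h.dich hK).imp (fun h2 => h1.trans h2.2.2) fun h2 => h1.trans h2.2.2

theorem Pair.le_norm (h : Pair q A G p s P S) (hL : L ≤ G) (hn : A ≤ 𝐍(L))
    (hπ : PiGrp {p, s} L) (hP : P ≤ L) : L ≤ 𝐍(P) :=
  (h.le_norm_or hL hn hπ).resolve_right fun e => h.npi
    ((pi_left h.sylP.isPGroup).sup (pi_right h.sylS.isPGroup) (Or.inl (hP.trans e)))

theorem Pair.cop (h : Pair q A G p s P S) : (♯P).Coprime ♯S :=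
  coprime_of_isPGroup_ne h.sylP.isPGroup h.sylS.isPGroup h.ne

theorem Pair.inf_cent (h : Pair q A G p s P S) : S ⊓ 𝐂(P) = ⊥ := by
  obtain ⟨K, hK, h1⟩ := exists_maxPi (π := {p, s})
    (sup_le h.sylP.le (inf_le_left.trans h.sylS.le) : P ⊔ S ⊓ 𝐂(P) ≤ G)
    (le_norm_sup h.nP (le_norm_inf h.nS (le_norm_cent h.nP)))
    ((pi_left h.sylP.isPGroup).sup (pi_right h.sylS.isPGroup.to_inf_left)
      (Or.inr (inf_le_right.trans (cent_le_norm P))))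
  rcases h.dich hK with ⟨h2, -, -⟩ | ⟨-, h2, -⟩
  · have h3 : Op p K ≤ P := h.min.le_syl h.sylP h.nP ((Op_le p K).trans hK.le) (Op_isPGroup p K)
      (le_norm_Op p hK.norm)
    have h4 := cent_Op_le_of_Op'_eq_bot (sol_of_pi hK.pi) (le_bot_iff.1 (h2 ▸ Op'_le_Op hK.pi))
    rw [← le_bot_iff, ← inf_eq_bot_of_coprime_card h.cop]
    exact le_inf ((le_inf (le_sup_right.trans h1) (inf_le_right.trans (cent_anti h3))).trans
      (h4.trans h3)) inf_le_left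
  · exact absurd (hK.pi.of_le (sup_le (le_sup_left.trans h1) h2)) h.npi

theorem Pair.d1 (h : Pair q A G p s P S) (hc : c ∈ A) (h1 : c ≠ 1) (h0 : Zc P ⊓ 𝐂[c] ≠ ⊥) :
    S ⊓ 𝐂[c] ≤ 𝐍(P) := by
  have h2 : Zc P ≤ G := (Zc_le P).trans h.sylP.le
  have h3 := h.min.norm_fix hc h.nS
  refine le_sup_right.trans (h.le_norm (sup_le h.sylP.le (inf_le_left.trans h.sylS.le))
    (le_norm_sup h.nP h3) ?_ le_sup_left)
  exact h.min.piSupN (inf_le_left.trans h2) h0 (sol_of_ab (ab_of_le (Zc_ab P) inf_le_left))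
    (h.min.norm_fix hc (le_norm_Zc h.nP)) h.sylP.le (inf_le_left.trans h.sylS.le)
    (le_norm_of_le_cent ((le_cent_Zc P).trans (cent_anti inf_le_left)))
    (le_norm_of_le_cent (h.min.fix_le_cent hc h1 (inf_le_inf_right _ h.sylS.le)
      (inf_le_inf_right _ h2))) (pi_left h.sylP.isPGroup) (pi_right h.sylS.isPGroup.to_inf_left)
    h.nP h3

theorem Pair.d2 (h : Pair q A G p s P S) (hc : c ∈ A) (h1 : c ≠ 1) :
    S ⊓ 𝐂[c] ≤ 𝐍(P) ∨ P ⊓ 𝐂[c] ≤ 𝐍(S) := by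
  refine (h.le_norm_or (L := P ⊓ 𝐂[c] ⊔ S ⊓ 𝐂[c])
    (sup_le (inf_le_left.trans h.sylP.le) (inf_le_left.trans h.sylS.le))
    (le_norm_sup (h.min.norm_fix hc h.nP) (h.min.norm_fix hc h.nS)) ?_).imp
    le_sup_right.trans le_sup_left.trans
  exact (pi_left h.sylP.isPGroup.to_inf_left).sup (pi_right h.sylS.isPGroup.to_inf_left)
    (Or.inl (le_norm_of_le_cent (h.min.fix_le_cent hc h1 (inf_le_inf_right _ h.sylP.le)
      (inf_le_inf_right _ h.sylS.le))))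

theorem Pair.d3 (h : Pair q A G p s P S) (hl : l ∈ A) (h1 : l ≠ 1) (h0 : P ⊓ 𝐂[l] ≠ ⊥)
    (h2 : P ⊓ 𝐂[l] ≤ 𝐍(S)) (hc : c ∈ A) (hcl : c ∉ zpowers l) : ¬ S ⊓ 𝐂[c] ≤ 𝐍(P) := by
  intro h3
  have h4 : S ⊓ 𝐂[c] ≤ 𝐂(P ⊓ 𝐂[l]) := by
    rw [← OO.commutator_eq_bot_iff, ← le_bot_iff, ← inf_eq_bot_of_coprime_card h.cop]
    exact le_inf ((commutator_mono le_rfl inf_le_left).trans (commutator_le_right' h3))
      ((commutator_mono inf_le_left le_rfl).trans (commutator_le_left' h2))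
  have h5 := h.min.tl h.sylS.le h.sylS.sol h.nS hl h1 (inf_le_inf_right _ h.sylP.le)
    (h.min.norm_fix hl h.nP) h2 (coprime_card_mono h.cop.symm le_rfl inf_le_left) hc hcl h4
  exact h0 (le_bot_iff.1 (h.symm.inf_cent ▸ le_inf inf_le_left h5))

theorem Pair.d4 (h : Pair q A G p s P S) (hl : l ∈ A) (h1 : l ≠ 1) (h0 : P ⊓ 𝐂[l] ≠ ⊥)
    (h2 : P ⊓ 𝐂[l] ≤ 𝐍(S)) : S ⊓ 𝐂[l] ≤ 𝐍(P) := by
  refine h.d1 hl h1 fun e => Zc_ne_bot h.sylP.nil h.P0 (le_bot_iff.1 ?_)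
  refine h.min.gen ((Zc_le P).trans h.sylP.le) (le_norm_Zc h.nP) fun c hc hc1 => ?_
  by_cases h3 : c ∈ zpowers l
  · rw [h.min.cent1_eq hl h3 hc1, e]
  · by_contra h4
    exact h.d3 hl h1 h0 h2 hc h3 (h.d1 hc hc1 fun e => h4 e.le)

theorem Pair.stepD (h : Pair q A G p s P S) (hl : l ∈ A) (h1 : l ≠ 1) :
    P ⊓ 𝐂[l] = ⊥ ∨ S ⊓ 𝐂[l] = ⊥ := by
  by_contra h0
  rw [not_or] at h0
  have h2 : P ⊓ 𝐂[l] ≤ 𝐍(S) ∧ S ⊓ 𝐂[l] ≤ 𝐍(P) := by
    rcases h.d2 hl h1 with h2 | h2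
    · exact ⟨h.symm.d4 hl h1 h0.2 h2, h2⟩
    · exact ⟨h2, h.d4 hl h1 h0.1 h2⟩
  obtain ⟨c, hc, hcl⟩ := h.min.exists_not_mem hl
  rcases h.d2 hc (ne_one_of_not_mem hcl) with h3 | h3
  · exact h.d3 hl h1 h0.1 h2.1 hc hcl h3
  · exact h.symm.d3 hl h1 h0.2 h2.2 hc hcl h3

end Two

end Cfsg.Agent.Mart
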