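import Cfsg.Agent.Lib.Core.MartB

/-! # Groups with a noncyclic group of automorphisms of order `q²` with abelian fixed points, III:
solvability -/

set_option autoImplicit false
set_option linter.unusedSectionVars false

namespace Cfsg.Agent.Mart

open Subgroup Cfsg.Agent.Coprime Cfsg.Agent.OO
open scoped Pointwise commutatorElement

universe u

variable {X : Type u} [Group X] [Finite X]

variable {q p s : ℕ} {A B C G H K L P S T U Y W : Subgroup X} {a b c l : X} {π : Set ℕ}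

/-- At most one subgroup of order `q` of `A` acts without fixed points on `P`. -/
def Big (A P : Subgroup X) : Prop := ∃ a ∈ A, a ≠ 1 ∧ ∀ b ∈ A, b ∉ zpowers a → P ⊓ 𝐂[b] ≠ ⊥

theorem Fp.cent_of_not_big (h : Fp q A G) (hb : ¬ Big A P) (hU : U ≤ P) (hUG : U ≤ G)
    (hUs : Sol U) (hAU : A ≤ 𝐍(U)) (hT : T ≤ G) (hAT : A ≤ 𝐍(T)) (hTU : T ≤ 𝐍(U))
    (hc : (♯U).Coprime ♯T) : T ≤ 𝐂(U) := by
  refine h.gen hT hAT fun a ha h1 => ?_
  by_contra h2
  refine hb ⟨a, ha, h1, fun b hb hab e => h2 ?_⟩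
  exact h.tl hUG hUs hAU ha h1 (inf_le_inf_right _ hT) (h.norm_fix ha hAT) (inf_le_left.trans hTU)
    (coprime_card_mono hc le_rfl inf_le_left) hb hab
    (((inf_le_inf_right _ hU).trans e.le).trans bot_le)

section One

variable [hp : Fact p.Prime]

theorem Fp.pnil_of_not_big (h : Fp q A G) (hb : ¬ Big A P) (hP : Syl p P G) (hAP : A ≤ 𝐍(P))
    (hH : H ≤ G) (hs : Sol H) (hAH : A ≤ 𝐍(H)) : PNil p H := by
  have hN := Op'p_normal p H
  have hAN : A ≤ 𝐍(Op'p p H) := hAH.trans (norm_le_norm_Op'p p H)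
  have h1 := h.syl_inf hP hAP (hN.le.trans hH) hAN
  set Q := P ⊓ Op'p p H with hQ
  have hAQ : A ≤ 𝐍(Q) := le_norm_inf hAP hAN
  have hM : H ⊓ 𝐍(Q) ≤ G := inf_le_left.trans hH
  obtain ⟨T, hT, hAT⟩ := coprime_Hall_exists ({p} : Set ℕ)ᶜ
    (le_norm_inf hAH (le_norm_norm hAQ)) (h.copH hM) (sol_of_le hs inf_le_left)
  have h2 : T ≤ 𝐂(Q) := h.cent_of_not_big hb inf_le_left (inf_le_left.trans hP.le) h1.sol hAQ
    (hT.le.trans hM) hAT (hT.le.trans inf_le_right) (coprime_of_isPGroup h1.isPGroup hT.piGrp)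
  have h3 : T ≤ Op'p p H :=
    (le_inf (hT.le.trans inf_le_left) h2).trans (solvable_p_constrained p hs Q h1)
  have h4 := (h1.frattini hN).symm.relIndex_eq
  have h5 : IsPiNum {p} ((Op'p p H).relIndex H) := by
    rw [h4]
    have h6 := hT.compl
    rw [compl_compl] at h6
    exact h6.of_dvd (relIndex_dvd_of_le_left _ h3)
  rw [pnil_iff_relIndex, ← relIndex_mul_relIndex _ _ _ (Op'_le_Op'p p H) hN.le]
  exact isPiNum_mul_iff.2 ⟨relIndex_Op'_Op'p p H, h5⟩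

theorem Min.not_pnil (h : Min q A G) (hP : Syl p P G) (h0 : P ≠ ⊥) : ¬ PNil p G := by
  intro h1
  rcases h.simple _ (Opi_normal _ G) (le_norm_Opi ({p} : Set ℕ)ᶜ h.norm) with h2 | h2
  · have h3 := (PNil.sdprod h1 hP).sup_eq
    rw [show Op' p G = ⊥ from h2, bot_sup_eq] at h3
    exact h.nsol (h3 ▸ hP.sol)
  · exact h0 (PiGrp.eq_bot hP.piGrp ((Op'_piGrp p G).of_le (hP.le.trans h2.ge)))

theorem Min.big_of_odd (h : Min q A G) (hp2 : p ≠ 2) (hP : Syl p P G) (hAP : A ≤ 𝐍(P))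
    (h0 : P ≠ ⊥) : Big A P := by
  by_contra hb
  refine h.not_pnil hP h0 (pnil_iff_hasNormalPComplement.2
    (Transfer.thompson_of_normalizer_inf hp2 hP.toTransfer fun Z h1 h2 h3 => ?_))
  rw [inf_comm, ← pnil_iff_hasNormalPComplement]
  exact h.pnil_of_not_big hb hP hAP inf_le_left
    (h.normSol (h1.trans hP.le) h2 (sol_of_le hP.sol h1) (hAP.trans h3))
    (le_norm_inf h.norm (le_norm_norm (hAP.trans h3)))

theorem Min.big_of_ab (h : Min q A G) (hP : Syl p P G) (hAP : A ≤ 𝐍(P)) (h0 : P ≠ ⊥)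
    (hab : Ab P) : Big A P := by
  by_contra hb
  have h1 := h.pnil_of_not_big hb hP hAP inf_le_left (h.normSol hP.le h0 hP.sol hAP)
    (le_norm_inf h.norm (le_norm_norm hAP))
  have h2 : G ⊓ 𝐍(P) ≤ 𝐂(P) := by
    rw [← (PNil.sdprod h1 hP.syl_norm).sup_eq]
    exact sup_le (PNil.le_cent h1 hP.isPGroup hP.syl_norm.le (Op'_piGrp p _) (Opi_le _ _)
      ((Opi_le _ _).trans inf_le_right)) (Ab.le_cent hab)
  exact h.not_pnil hP h0 (pnil_of_sdprod (Burnside_normal_complement hP h2) (Op'_piGrp p G)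
    hP.isPGroup)

variable [hs : Fact s.Prime]

theorem Pair.false_of_odd (h : Pair q A G p s P S) (hp2 : p ≠ 2) : False := by
  obtain ⟨a, ha, h1, h2⟩ := h.min.big_of_odd hp2 h.sylP h.nP h.P0
  have h3 : S ≤ G ⊓ 𝐂[a] := by
    refine h.min.gen h.sylS.le h.nS fun b hb hb1 => ?_
    by_cases h3 : b ∈ zpowers a
    · rw [h.min.cent1_eq ha h3 hb1]; exact inf_le_inf_right _ h.sylS.le
    · rw [(h.stepD hb hb1).resolve_left (h2 b hb h3)]; exact bot_le
  obtain ⟨c, hc, -, h4⟩ := h.min.big_of_ab h.sylS h.nS h.S0 (ab_of_le (h.min.ab a ha h1) h3)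
  obtain ⟨b, hb, h5, h6⟩ := h.min.exists_not_mem₂ ha hc
  rcases h.stepD hb (ne_one_of_not_mem h5) with h7 | h7
  · exact h2 b hb h5 h7
  · exact h4 b hb h6 h7

theorem Min.pi_sup (h : Min q A G) (hP : Syl p P G) (hS : Syl s S G) (hAP : A ≤ 𝐍(P))
    (hAS : A ≤ 𝐍(S)) : PiGrp {p, s} (P ⊔ S) := by
  by_contra h1
  by_cases h2 : P = ⊥
  · exact h1 (by rw [h2, bot_sup_eq]; exact pi_right hS.isPGroup)
  by_cases h3 : S = ⊥
  · exact h1 (by rw [h3, sup_bot_eq]; exact pi_left hP.isPGroup)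
  by_cases h4 : p = s
  · subst h4
    exact h1 (by rw [sup_eq_left.2 (h.le_syl hP hAP hS.le hS.isPGroup hAS)]
                 exact pi_left hP.isPGroup)
  have h5 : Pair q A G p s P S := ⟨h, h4, hP, hS, hAP, hAS, h2, h3, h1⟩
  by_cases h6 : p = 2
  · exact h5.symm.false_of_odd fun e => h4 (h6.trans e.symm)
  · exact h5.false_of_odd h6

theorem Min.isProd (h : Min q A G) (hP : Syl p P G) (hS : Syl s S G) (hAP : A ≤ 𝐍(P))
    (hAS : A ≤ 𝐍(S)) : IsProd P S (P ⊔ S) := by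
  by_cases h4 : p = s
  · subst h4
    exact IsProd.of_norm (Or.inr (le_norm_of_le (h.le_syl hP hAP hS.le hS.isPGroup hAS)))
  have h1 := h.pi_sup hP hS hAP hAS
  have h2 : P ⊔ S ≤ G := sup_le hP.le hS.le
  refine (hP.hall.mono le_sup_left h2).isProd_compl
    ((hS.hall.mono le_sup_right h2).congr fun r hr hd => ?_)
  have h3 := h1 r hr hd
  simp only [Set.mem_insert_iff, Set.mem_singleton_iff, Set.mem_compl_iff] at h3 ⊢
  rcases h3 with rfl | rfl
  · simp [h4]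
  · simp [Ne.symm h4]

end One

theorem isProd_sup (h1 : IsProd A B (A ⊔ B)) (h2 : IsProd A C (A ⊔ C)) :
    IsProd A (B ⊔ C) (A ⊔ (B ⊔ C)) := by
  let Q : X → Prop := fun y => ∃ a ∈ A, ∃ d ∈ B ⊔ C, a * d = y
  let T : Subgroup X :=
    { carrier := {g | ∀ y, Q y ↔ Q (g * y)}
      mul_mem' := fun {g k} hg hk y => by rw [mul_assoc, ← hg, ← hk]
      one_mem' := fun y => by rw [one_mul]
      inv_mem' := fun {g} hg y => by rw [hg (g⁻¹ * y), mul_inv_cancel_left] }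
  have key : ∀ D : Subgroup X, (∀ g ∈ D, ∀ y, Q y → Q (g * y)) → D ≤ T := fun D hD g hg y =>
    ⟨hD g hg y, fun e => by simpa using hD g⁻¹ (inv_mem hg) _ e⟩
  have key2 : ∀ D : Subgroup X, D ≤ B ⊔ C → IsProd A D (A ⊔ D) → D ≤ T := fun D hD hD' => by
    refine key D ?_
    rintro g hg _ ⟨a, ha, d, hd, rfl⟩
    obtain ⟨a', ha', d', hd', e⟩ := hD'.mem_iff.1
      (mul_mem (mem_sup_right hg) (mem_sup_left ha) : g * a ∈ A ⊔ D)
    exact ⟨a', ha', d' * d, mul_mem (hD hd') hd, by rw [← mul_assoc, e, mul_assoc]⟩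
  have h3 : A ⊔ (B ⊔ C) ≤ T := by
    refine sup_le (key A ?_) (sup_le (key2 B le_sup_left h1) (key2 C le_sup_right h2))
    rintro g hg _ ⟨a, ha, d, hd, rfl⟩
    exact ⟨g * a, mul_mem hg ha, d, hd, mul_assoc _ _ _⟩
  refine IsProd.of_forall le_sup_left le_sup_right fun x hx => ?_
  simpa using (h3 hx 1).1 ⟨1, one_mem _, 1, one_mem _, one_mul _⟩

theorem Min.false (h : Min q A G) : False := by
  have hG : G ≠ ⊥ := fun e => h.nsol (e ▸ sol_bot)
  obtain ⟨p, hp, hd⟩ := exists_prime_dvd hG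
  have := Fact.mk hp
  obtain ⟨P, hP, hAP⟩ := h.exists_syl p
  obtain ⟨H, h1, h2⟩ := Finite.exists_le_maximal
    (p := fun H : Subgroup X => H < G ∧ A ≤ 𝐍(H) ∧ ∀ (r : ℕ) [Fact r.Prime] (R : Subgroup X),
      Syl r R G → A ≤ 𝐍(R) → IsProd R H (R ⊔ H)) (a := P)
    ⟨lt_of_le_of_ne hP.le fun e => h.nsol (e ▸ hP.sol), hAP,
      fun r _ R hR hAR => h.isProd hR hP hAR hAP⟩
  obtain ⟨⟨hH, hAH, h3⟩, h4⟩ := h2
  have h5 : ∃ (r : ℕ) (_ : Fact r.Prime) (R : Subgroup X), Syl r R G ∧ A ≤ 𝐍(R) ∧ ¬ R ≤ H := by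
    by_contra h5
    refine hH.not_ge (le_of_forall_syl fun r hr _ => ?_)
    have := Fact.mk hr
    obtain ⟨R, hR, hAR⟩ := h.exists_syl r
    exact ⟨R, hR, by_contra fun e => h5 ⟨r, this, R, hR, hAR, e⟩⟩
  obtain ⟨r, _, R, hR, hAR, h5⟩ := h5
  have h6 : R ⊔ H = G := by
    by_contra h6
    refine h5 (le_sup_left.trans (h4 ⟨lt_of_le_of_ne (sup_le hR.le hH.le) h6, le_norm_sup hAR hAH,
      fun t _ T hT hAT => isProd_sup (h.isProd hT hR hAT hAR) (h3 t T hT hAT)⟩ le_sup_right))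
  have h7 := h3 r R hR hAR
  rw [h6] at h7
  obtain ⟨t, ht, h8⟩ := exists_Op_ne_bot (h.proper H hH hAH)
    fun e => hP.ne_bot hd (le_bot_iff.1 (e ▸ h1))
  have := Fact.mk ht
  obtain ⟨T, hT, hAT⟩ := h.exists_syl t
  have hNG : Op t H ≤ G := (Op_le t H).trans hH.le
  have hAN := le_norm_Op t hAH
  have h9 : Op t H ≤ T := h.le_syl hT hAT hNG (Op_isPGroup t H) hAN
  have h10 : ⁅Op t H, G⁆ ≤ R ⊔ T := by
    refine commutator_le.2 fun n hn g hg => ?_
    obtain ⟨x, hx, y, hy, rfl⟩ := h7.mem_iff.1 hg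
    have h11 : y * n⁻¹ * y⁻¹ ∈ Op t H := (Op_normal t H).conj_mem hy (inv_mem hn)
    have h12 : ⁅n, x * y⁆ = n * (x * (y * n⁻¹ * y⁻¹) * x⁻¹) := by
      rw [commutatorElement_def]; group
    rw [h12]
    exact mul_mem (mem_sup_right (h9 hn)) (mul_mem (mul_mem (mem_sup_left hx)
      (mem_sup_right (h9 h11))) (mem_sup_left (inv_mem hx)))
  rcases h.simple ⁅Op t H, G⁆ ⟨commutator_le_of_le hNG le_rfl, le_norm_commutator_right _ _⟩
    (le_norm_commutator hAN h.norm) with h11 | h11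
  · have h12 := h.normSol hNG h8 (sol_of_isPGroup (Op_isPGroup t H)) hAN
    rw [inf_eq_left.2 (le_norm_of_le_cent (commutator_eq_bot_iff'.1 h11))] at h12
    exact h.nsol h12
  · exact h.nsol (sol_of_le (sol_of_pi (h.pi_sup hR hT hAR hAT)) (h11 ▸ h10))

theorem Hyp.sol_aux (q n : ℕ) : ∀ (X : Type u) [Group X] [Finite X] (A G : Subgroup X),
    ♯G = n → Hyp q A G → Sol G := by
  induction n using Nat.strong_induction_on with
  | _ n ih =>
  intro X _ _ A G hn h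
  by_contra h0
  have h1 : ∀ H, H < G → A ≤ 𝐍(H) → Sol H := fun H hH hA =>
    ih _ (hn ▸ card_lt hH) X A H rfl (h.sub hH.le hA)
  have h2 : ∀ N, N ⊴ G → A ≤ 𝐍(N) → N = ⊥ ∨ N = G := fun N hN hA => by
    by_contra h2
    rw [not_or] at h2
    exact h0 (sol_of_normal_of_quo hN (h1 N (lt_of_le_of_ne hN.le h2.2) hA)
      (ih _ (hn ▸ card_quo_lt hN.le h2.1) _ _ _ rfl (h.quo hN hA)))
  have h3 : G ≤ 𝐂(G ⊓ 𝐂(A)) := h.gen le_rfl h.norm fun a ha ha1 =>
    h.fix_le_cent ha ha1 le_rfl (inf_le_inf_left _ (cent_le_cent1 ha))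
  refine Min.false ⟨⟨h, (h2 _ ⟨inf_le_left, le_norm_of_le_cent h3⟩
    (le_norm_of_le_cent (le_cent_symm inf_le_right))).resolve_right fun e => h0 ?_⟩, h0, h1, h2⟩
  rw [e] at h3
  exact sol_of_ab (ab_iff_le_cent.2 h3)

theorem Hyp.sol (h : Hyp q A G) : Sol G := Hyp.sol_aux q _ X A G rfl h

end Cfsg.Agent.Mart
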